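import Mathlib
import Cfsg.Agent.Lib.LyDce.FixDefs

/-!
# The presented Lyons group: the checks for an element of order three
-/

set_option autoImplicit false
set_option maxRecDepth 100000
set_option linter.all false
set_option Elab.async false
set_option maxHeartbeats 0

namespace Cfsg.Agent.Lib.LyDce

open Cfsg.Agent.Lib.TcFacts Cfsg.Agent.Lib.FpVec

/-- The sum of the diagonal digits of a linear map given by its action on codes. -/
noncomputable def trW (w : ℕ → ℕ) : ℕ :=
  Nat.rec (motive := fun _ => ℕ) 0 (fun b ih => Nat.add ih (dg 256 (w (Nat.pow 256 b)) b)) 14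

/-- The element of a row of a spanning tree may be conjugate to an element of order three with the given trace. -/
noncomputable def cubeRow (key par gen dep : ℕ → ℕ) (act : ℕ → ℕ → ℕ) (v0 tr0 n i : ℕ) : Bool :=
  bAnd (Nat.blt i n)
    ((fun w => bAnd (Nat.beq (w (w (key i))) v0) (Nat.beq (Nat.mod (trW w) 5) tr0))
      (walkRow par gen act (Nat.succ (dep i)) i))

end Cfsg.Agent.Lib.LyDce
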