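import Mathlib
import Cfsg.Agent.Lib.LyDce.Fix
import Cfsg.Agent.Lib.LyDce.Fix3Defs
import Cfsg.Agent.TcData.Ly.Fix3.T1
import Cfsg.Agent.TcData.Ly.Fix3.C1
import Cfsg.Agent.TcData.Ly.Fix3.N2
import Cfsg.Agent.TcData.Ly.Fix3.N3
import Cfsg.Agent.TcData.Ly.Fix3.N4

/-!
# The presented Lyons group: the centraliser of an element of order three is small
-/

set_option autoImplicit false
set_option maxRecDepth 100000
set_option linter.all false
set_option Elab.async false
set_option maxHeartbeats 0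

namespace Cfsg.Agent.Lib.LyDce

open Cfsg Cfsg.Spor Cfsg.Lie Cfsg.Agent.Lib.TcFacts Cfsg.Agent.Lib.TcBits Cfsg.Agent.Lib.TcPres
  Cfsg.Agent.Lib.TcRel Cfsg.Agent.Lib.TcChain Cfsg.Spor.Ly Cfsg.Agent.Lib.ChevG25 Cfsg.Agent.Lib.FpVec
  Cfsg.Agent.Lib.LyG25 Cfsg.Agent.Lib.TcCov Cfsg.Agent.Lib.DCount Cfsg.Agent.Lib.VecOrb Cfsg.Agent.Lib.FixCount

/-- The matrix of a word on `Fin 14`. -/
noncomputable abbrev NN (l : List ℕ) : Matrix (Fin 14) (Fin 14) K := (l.map fun a => mat 256 5 14 (cN a)).prod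

theorem trN_eq (f : ℕ → ℕ) (n : ℕ) :
    (Nat.rec (motive := fun _ => ℕ) 0 (fun b ih => Nat.add ih (dg 256 (f (Nat.pow 256 b)) b)) n : ℕ) =
      ∑ b ∈ Finset.range n, dg 256 (f (256 ^ b)) b := by
  induction n with
  | zero => rfl
  | succ n ih =>
    rw [Finset.sum_range_succ, ← ih]
    rfl

theorem NN_apply (l : List ℕ) (b : Fin 14) :
    NN l b b = ((dg 256 (wordV 256 5 14 cN l (256 ^ (b : ℕ))) b : ℕ) : K) := by
  have h1 := (wordV_spec par cN_valid l (rd_pow par (by norm_num) (b : ℕ))).2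
  rw [decV_pow par, Matrix.mulVec_single_one] at h1
  have h2 := congrFun h1 b
  rw [Matrix.col_apply] at h2
  exact h2.symm

theorem trW_word (l : List ℕ) : ((trW (wordV 256 5 14 cN l) : ℕ) : K) = Matrix.trace (NN l) := by
  have h : trW (wordV 256 5 14 cN l) = ∑ b ∈ Finset.range 14, dg 256 (wordV 256 5 14 cN l (256 ^ b)) b :=
    trN_eq _ 14
  rw [h, Matrix.trace, Nat.cast_sum, ← Fin.sum_univ_eq_sum_range (fun b => ((dg 256 (wordV 256 5 14 cN l (256 ^ b)) b : ℕ) : K))]
  refine Finset.sum_congr rfl fun b _ => ?_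
  rw [Matrix.diag_apply, NN_apply]

theorem trace_decM (m : Matrix (Fin 14) (Fin 14) K) : Matrix.trace (decM m) = Matrix.trace m := by
  unfold Matrix.trace
  rw [← Equiv.sum_comp eI]
  rfl

/-- The trace is a class function on the stabiliser. -/
theorem trace_conj {l tw : List ℕ} (c : HB) (h : eh l = (c : G) * eh tw * (c : G)⁻¹) :
    Matrix.trace (NN l) = Matrix.trace (NN tw) := by
  have e : (⟨eh l, eh_mem l⟩ : HB) = c * ⟨eh tw, eh_mem tw⟩ * c⁻¹ := Subtype.ext h
  have h1 := psi_eh l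
  have h2 := psi_eh tw
  rw [← trace_decM, ← trace_decM, ← h1, ← h2, e, map_mul, map_mul, map_inv]
  set A := psi c
  set B := psi ⟨eh tw, eh_mem tw⟩
  have e1 : (((A * B * A⁻¹ : GG) : GL IdG K) : Matrix IdG IdG K) =
      ((A : GL IdG K) : Matrix IdG IdG K) * ((B : GL IdG K) : Matrix IdG IdG K) * (((A⁻¹ : GG) : GL IdG K) : Matrix IdG IdG K) := rfl
  rw [e1, Matrix.trace_mul_comm, ← mul_assoc]
  have e2 : (((A⁻¹ : GG) : GL IdG K) : Matrix IdG IdG K) * ((A : GL IdG K) : Matrix IdG IdG K) = 1 := by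
    have : ((A⁻¹ * A : GG) : GL IdG K) = 1 := by simp
    exact congrArg Units.val this
  rw [e2, one_mul]

/-- The counts of the conjugates in a piece, from its spanning tree. -/
theorem cube_count {k : Fin 5} {n : ℕ} {key par' gen dep : ℕ → ℕ} {v0 tr0 : ℕ} {Y : List (List ℕ)}
    (h : ∀ i, i < n → rowOK key par' gen dep (fun g x => wordV 256 5 14 cN (Y.getD g []) x) v0 n i = true)
    (hY : ∀ w ∈ Y, eh w ∈ A k) (hv : Rd 256 5 v0) (hv2 : v0 < 256 ^ 14) (hcard : Nat.card (A k) = n)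
    {hi cnt : ℕ} (hT : Block (fun _ => true) (cubeRow key par' gen dep (fun g x => wordV 256 5 14 cN (Y.getD g []) x) v0 tr0 n) 0 hi cnt)
    (hd : n ≤ hi) (tw : List ℕ) (htr : Nat.mod (trW (wordV 256 5 14 cN tw)) 5 = tr0)
    (x : HB) (hx : (x : G) = eh tw) (hx3 : x * x * x = 1) : Nat.card (ConjIn (BB k) x) ≤ cnt := by
  classical
  have hY' : ∀ g, eh (Y.getD g []) ∈ A k := by
    intro g
    by_cases hg : g < Y.length
    · rw [List.getD_eq_getElem _ _ hg]
      exact hY _ (List.getElem_mem hg)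
    · rw [List.getD_eq_default _ _ (by omega)]
      exact (A k).one_mem
  have hw := row_word h hY'
  have hw' : ∀ i, ∃ l, i < n → eh l ∈ A k ∧ wordV 256 5 14 cN l v0 = key i ∧
      ∀ x, wordV 256 5 14 cN l x = walkRow par' gen (fun g x => wordV 256 5 14 cN (Y.getD g []) x) (dep i + 1) i x := by
    intro i
    by_cases hi : i < n
    · obtain ⟨l, hl⟩ := hw (dep i + 1) i (by omega) hi
      exact ⟨l, fun _ => hl⟩
    · exact ⟨[], fun h => absurd h hi⟩
  choose l hl using hw'
  let f : Fin n → A k := fun i => ⟨eh (l i), (hl i i.2).1⟩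
  have hf : Function.Injective f := by
    intro i j e
    have e1 : eh (l i) = eh (l j) := congrArg Subtype.val e
    have e2 := wordV_congr e1 hv hv2
    rw [(hl i i.2).2.1, (hl j j.2).2.1] at e2
    exact Fin.ext (key_inj h i.2 j.2 e2)
  have hbij : Function.Bijective f := hf.bijective_of_nat_card_le (by simp [hcard])
  have hpick : ∀ y : ConjIn (BB k) x, ∃ i : Fin n, eh (l i) = ((y.1 : HB) : G) := by
    intro y
    have hm : ((y.1 : HB) : G) ∈ A k := Subgroup.mem_subgroupOf.mp y.1.2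
    obtain ⟨i, hi⟩ := hbij.2 ⟨_, hm⟩
    exact ⟨i, congrArg Subtype.val hi⟩
  choose pick hpick using hpick
  let S : Finset ℕ := (Finset.Ico 0 hi).filter fun i =>
    cubeRow key par' gen dep (fun g x => wordV 256 5 14 cN (Y.getD g []) x) v0 tr0 n i = true
  have hS : S.card = cnt := hT.2
  have hmem : ∀ y : ConjIn (BB k) x, ((pick y : Fin n) : ℕ) ∈ S := by
    intro y
    have hi' := (pick y).2
    refine Finset.mem_filter.mpr ⟨Finset.mem_Ico.mpr ⟨Nat.zero_le _, by omega⟩, ?_⟩
    obtain ⟨g, hg⟩ := isConj_iff.mp y.2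
    have h2 : (y.1 : HB) * (y.1 : HB) * (y.1 : HB) = 1 := by
      rw [← hg]
      have : g * x * g⁻¹ * (g * x * g⁻¹) * (g * x * g⁻¹) = g * (x * x * x) * g⁻¹ := by group
      rw [this, hx3]
      group
    have h3 : eh (l (pick y)) * eh (l (pick y)) * eh (l (pick y)) = 1 := by
      rw [hpick y]
      exact congrArg Subtype.val h2
    have h4 : eh (l (pick y) ++ (l (pick y) ++ l (pick y))) = eh [] := by
      rw [eh_append, eh_append, ← mul_assoc, h3]
      rfl
    have h5 := wordV_congr h4 hv hv2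
    rw [wordV_app, wordV_app] at h5
    have h6 : wordV 256 5 14 cN (l (pick y)) (wordV 256 5 14 cN (l (pick y)) (key (pick y))) = v0 := by
      rw [← (hl _ hi').2.1]
      exact h5
    have hwalk : ∀ u, walkRow par' gen (fun g x => wordV 256 5 14 cN (Y.getD g []) x) (dep (pick y) + 1) (pick y) u =
        wordV 256 5 14 cN (l (pick y)) u := fun u => ((hl _ hi').2.2 u).symm
    have hfun : walkRow par' gen (fun g x => wordV 256 5 14 cN (Y.getD g []) x) (dep (pick y) + 1) (pick y) =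
        wordV 256 5 14 cN (l (pick y)) := funext hwalk
    -- the trace
    have hc : eh (l (pick y)) = (g : G) * eh tw * (g : G)⁻¹ := by
      rw [hpick y, ← hg, ← hx]
      rfl
    have h7 := trace_conj g hc
    rw [← trW_word, ← trW_word] at h7
    have h8 := (ZMod.natCast_eq_natCast_iff' _ _ 5).mp h7
    show bAnd (Nat.blt (pick y) n) (bAnd (Nat.beq ((walkRow par' gen _ (dep (pick y)).succ (pick y))
      ((walkRow par' gen _ (dep (pick y)).succ (pick y)) (key (pick y)))) v0)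
      (Nat.beq (Nat.mod (trW (walkRow par' gen _ (dep (pick y)).succ (pick y))) 5) tr0)) = true
    rw [bAnd_eq, bAnd_eq, blt_true]
    refine ⟨hi', ?_, ?_⟩
    · rw [show (dep (pick y)).succ = dep (pick y) + 1 from rfl, hfun, h6]
      exact Nat.beq_refl v0
    · rw [show (dep (pick y)).succ = dep (pick y) + 1 from rfl, hfun, ← htr]
      show Nat.beq (trW (wordV 256 5 14 cN (l (pick y))) % 5) (trW (wordV 256 5 14 cN tw) % 5) = true
      rw [h8]
      exact Nat.beq_refl _
  have := Nat.card_le_card_of_injective (fun y : ConjIn (BB k) x => (⟨(pick y : ℕ), hmem y⟩ : S)) (by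
    intro y y' e
    have e1 : pick y = pick y' := Fin.ext (congrArg Subtype.val e)
    have e2 : ((y.1 : HB) : G) = ((y'.1 : HB) : G) := by
      rw [← hpick y, ← hpick y', e1]
    apply Subtype.ext
    apply Subtype.ext
    exact Subtype.ext e2)
  rwa [Nat.card_eq_fintype_card (α := S), Fintype.card_coe, hS] at this

/-- The bound for the element of order three, with the counts of the pieces. -/
theorem cent_bound3 (x : HB) (hf1 : Nat.card (FixQ (BB 1) x) ≤ 252) (hn1 : 200 ≤ Nat.card (ConjIn (BB 1) x))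
    (hn2 : Nat.card (ConjIn (BB 2) x) ≤ 56) (hn3 : Nat.card (ConjIn (BB 3) x) ≤ 2)
    (hn4 : Nat.card (ConjIn (BB 4) x) ≤ 20) :
    Nat.card (Subgroup.centralizer ({(x : G)} : Set G)) ≤ 2694384000 := by
  have h0 := cent_le x
  rw [fix_sum, Fin.sum_univ_five] at h0
  set c := Nat.card (Subgroup.centralizer ({x} : Set HB)) with hc
  have d1 := double_count (BB 1) x
  have d2 := double_count (BB 2) x
  have d3 := double_count (BB 3) x
  have d4 := double_count (BB 4) x
  have e1 : Nat.card (BB 1) = 300000 := (card_BB 1).trans card_A1'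
  have e2 : Nat.card (BB 2) = 6048 := (card_BB 2).trans card_A2'
  have e3 : Nat.card (BB 3) = 1008 := (card_BB 3).trans card_A3'
  have e4 : Nat.card (BB 4) = 2880 := (card_BB 4).trans card_A4'
  rw [e1] at d1
  rw [e2] at d2
  rw [e3] at d3
  rw [e4] at d4
  have h00 := fix0_le x
  have hc1 : c ≤ 378000 := by
    have h1 : c * 200 ≤ 252 * 300000 := by
      calc c * 200 ≤ c * Nat.card (ConjIn (BB 1) x) := Nat.mul_le_mul_left _ hn1
        _ = Nat.card (FixQ (BB 1) x) * 300000 := d1.symm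
        _ ≤ 252 * 300000 := Nat.mul_le_mul_right _ hf1
    omega
  have f2 : Nat.card (FixQ (BB 2) x) ≤ 3500 := by
    have h1 : Nat.card (FixQ (BB 2) x) * 6048 ≤ 378000 * 56 := by
      rw [d2]
      exact Nat.mul_le_mul hc1 hn2
    omega
  have f3 : Nat.card (FixQ (BB 3) x) ≤ 750 := by
    have h1 : Nat.card (FixQ (BB 3) x) * 1008 ≤ 378000 * 2 := by
      rw [d3]
      exact Nat.mul_le_mul hc1 hn3
    omega
  have f4 : Nat.card (FixQ (BB 4) x) ≤ 2625 := by
    have h1 : Nat.card (FixQ (BB 4) x) * 2880 ≤ 378000 * 20 := by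
      rw [d4]
      exact Nat.mul_le_mul hc1 hn4
    omega
  have hsum : Nat.card (FixQ (BB 0) x) + Nat.card (FixQ (BB 1) x) + Nat.card (FixQ (BB 2) x) +
      Nat.card (FixQ (BB 3) x) + Nat.card (FixQ (BB 4) x) ≤ 7128 := by omega
  calc _ ≤ _ := h0
    _ ≤ 7128 * 378000 := Nat.mul_le_mul hsum hc1
    _ = 2694384000 := by norm_num

/-- The element of order three. -/
noncomputable def xC : HB := ⟨eh [2, 1, 3, 0, 2, 3], eh_mem _⟩

theorem xC_cube : xC * xC * xC = 1 := by
  apply Subtype.ext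
  show eh [2, 1, 3, 0, 2, 3] * eh [2, 1, 3, 0, 2, 3] * eh [2, 1, 3, 0, 2, 3] = 1
  rw [← eh_append, ← eh_append]
  exact eh_eq_one _ (by decide +kernel)

theorem xC_ne : xC ≠ 1 := by
  intro h
  have e1 : eh [2, 1, 3, 0, 2, 3] = eh [] := congrArg Subtype.val h
  have h2 := wordV_congr e1 (v := 1) (rd_of_redu (by decide +kernel)) (lt_of_redu (by decide +kernel))
  revert h2
  decide +kernel

/-- The order of the centraliser of the element of order three. -/
theorem cent_le3 : Nat.card (Subgroup.centralizer ({(xC : G)} : Set G)) ≤ 2694384000 := by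
  refine cent_bound3 xC ?_ ?_ ?_ ?_ ?_
  · rw [BB1_eq]
    exact fix_le [2, 1, 3, 0, 2, 3] (by decide) (by decide) Cfsg.Agent.TcData.Ly.Fix3.T1.all xC rfl
  · rw [BB1_eq]
    exact conj_ge _ [2, 1, 3, 0, 2, 3] _ 200 (by decide) (by decide) (rd_of_redu (by decide +kernel)) (lt_of_redu (by decide +kernel))
      (allR_le Cfsg.Agent.TcData.Ly.Fix3.C1.hF (by norm_num)) xC rfl
  · exact cube_count (k := 2) (Y := Y2) (allR_le Cfsg.Agent.TcData.Ly.Card.L2.hF (by norm_num)) Y2_mem
      (rd_of_redu (by decide +kernel)) (lt_of_redu (by decide +kernel)) card_A2' Cfsg.Agent.TcData.Ly.Fix3.N2.all (by norm_num)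
      [2, 1, 3, 0, 2, 3] (by decide +kernel) xC rfl xC_cube
  · exact cube_count (k := 3) (Y := Y3) (allR_le Cfsg.Agent.TcData.Ly.Card.L3.hF (by norm_num)) Y3_mem
      (rd_of_redu (by decide +kernel)) (lt_of_redu (by decide +kernel)) card_A3' Cfsg.Agent.TcData.Ly.Fix3.N3.all (by norm_num)
      [2, 1, 3, 0, 2, 3] (by decide +kernel) xC rfl xC_cube
  · exact cube_count (k := 4) (Y := Y4) (allR_le Cfsg.Agent.TcData.Ly.Card.L4.hF (by norm_num)) Y4_mem
      (rd_of_redu (by decide +kernel)) (lt_of_redu (by decide +kernel)) card_A4' Cfsg.Agent.TcData.Ly.Fix3.N4.all (by norm_num)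
      [2, 1, 3, 0, 2, 3] (by decide +kernel) xC rfl xC_cube

end Cfsg.Agent.Lib.LyDce
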