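import Mathlib
import Cfsg.Agent.Lib.VecOrb
import Cfsg.Agent.Lib.TcFacts
import Cfsg.Agent.Lib.FpVec

/-!
# The checks behind a family of subsets of vectors
-/

set_option autoImplicit false
set_option maxRecDepth 100000
set_option linter.all false
set_option Elab.async false
set_option maxHeartbeats 0

namespace Cfsg.Agent.Lib.LyDce

open Cfsg.Agent.Lib.TcFacts Cfsg.Agent.Lib.FpVec Cfsg.Agent.Lib.VecOrb

/-- A digit of width 13. -/
noncomputable def dg13 (T j : ℕ) : ℕ := Nat.land (Nat.shiftRight T (Nat.mul 13 j)) 8191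

/-- The mask of the first `n` digits of a list. -/
noncomputable def orL (L : ℕ) (n : ℕ) : ℕ :=
  Nat.rec (motive := fun _ => ℕ) 0 (fun k ih => Nat.lor ih (Nat.shiftLeft 1 (dg13 L k))) n

/-- A bit of a mask. -/
noncomputable def bitK (M j : ℕ) : Bool := Nat.beq (Nat.land (Nat.shiftRight M j) 1) 1

/-- All the first `n` digits of a list are sent into the mask. -/
noncomputable def incl (P : ℕ → ℕ) (M L n : ℕ) : Bool :=
  Nat.rec (motive := fun _ => Bool) true (fun k ih => bAnd (bitK M (P (dg13 L k))) ih) n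

/-- The vectors are reduced and increase. -/
noncomputable def rowO (om : ℕ → ℕ) (n j : ℕ) : Bool :=
  Bool.or (Nat.ble n j)
    (bAnd (Nat.beq (redu 2048 5 111 (om j)) (om j))
      (Bool.or (Nat.beq (Nat.succ j) n) (Nat.blt (om j) (om (Nat.succ j)))))

/-- The element fixes the vectors. -/
noncomputable def rowX (X : List ℕ) (om : ℕ → ℕ) (n j : ℕ) : Bool :=
  Bool.or (Nat.ble n j) (Nat.beq (mv 2048 5 111 X (om j)) (om j))

/-- The action on the vectors. -/
noncomputable def rowY (Y : List ℕ) (P om : ℕ → ℕ) (n j : ℕ) : Bool :=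
  Bool.or (Nat.ble n j) (Nat.beq (mv 2048 5 111 Y (om j)) (om (P j)))

/-- The action on the subsets. -/
noncomputable def rowD (P s L M : ℕ → ℕ) (w n i : ℕ) : Bool :=
  Bool.or (Nat.ble n i) (incl P (M (s i)) (L i) w)

/-- The masks of the subsets. -/
noncomputable def rowM (L M : ℕ → ℕ) (w m n i : ℕ) : Bool :=
  Bool.or (Nat.ble n i) (bAnd (Nat.beq (orL (L i) w) (M i)) (Nat.blt (M i) (Nat.pow 2 m)))

/-- The masks are distinct. -/
noncomputable def rowS (M : ℕ → ℕ) (n i : ℕ) : Bool :=
  Bool.or (Nat.ble n i)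
    (Nat.rec (motive := fun _ => Bool) true (fun j ih => bAnd (Bool.not (Nat.beq (M i) (M j))) ih) i)

theorem allR_blocks (F : ℕ → Bool) (d n : ℕ) (h : ∀ b, b < n → allR F d (b * 2 ^ d) = true) :
    ∀ j, j < n * 2 ^ d → F j = true := by
  intro j hj
  have hpos : 0 < 2 ^ d := by positivity
  have hb : j / 2 ^ d < n := Nat.div_lt_of_lt_mul (by rwa [mul_comm] at hj)
  refine allR_spec F d _ (h _ hb) j ?_ ?_
  · exact Nat.div_mul_le_self _ _
  · have := Nat.div_add_mod j (2 ^ d)
    have h2 := Nat.mod_lt j hpos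
    rw [mul_comm] at this
    omega

end Cfsg.Agent.Lib.LyDce
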