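import Mathlib
import Cfsg.Agent.Lib.LyDce.Fix3
import Cfsg.Agent.Lib.LyDce.VRep
import Cfsg.Agent.Lib.FamilyAct
import Cfsg.Agent.Lib.McLGenFacts
import Cfsg.Agent.TcData.Ly.Mc.RO
import Cfsg.Agent.TcData.Ly.Mc.RX
import Cfsg.Agent.TcData.Ly.Mc.RY0
import Cfsg.Agent.TcData.Ly.Mc.RY1
import Cfsg.Agent.TcData.Ly.Mc.RY2
import Cfsg.Agent.TcData.Ly.Mc.RD0
import Cfsg.Agent.TcData.Ly.Mc.RD1
import Cfsg.Agent.TcData.Ly.Mc.RD2
import Cfsg.Agent.TcData.Ly.Mc.RM
import Cfsg.Agent.TcData.Ly.Mc.RS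

/-!
# The presented Lyons group: the centraliser of an element of order three, a central extension of McLaughlin's group
-/

set_option autoImplicit false
set_option maxRecDepth 100000
set_option linter.all false
set_option Elab.async false
set_option maxHeartbeats 0

namespace Cfsg.Agent.Lib.LyDce

open Cfsg.Spor.Ly Cfsg.Agent.Lib.FpVec Cfsg.Agent.Lib.LyV111 Cfsg.Agent.Lib.VecOrb Cfsg.Agent.Lib.TcFacts
  Cfsg.Agent.TcData.Ly.Mc Cfsg.Agent.TcData.Ly.Syl.McN Cfsg.Agent.Lib.FamilyAct Matrix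

/-- The representation is faithful. -/
theorem rho_inj3 : Function.Injective rho := by
  haveI : IsSimpleGroup G := simple_G
  rw [← MonoidHom.ker_eq_bot_iff]
  rcases IsSimpleGroup.eq_bot_or_eq_top_of_normal (G := G) (rho.ker) inferInstance with h | h
  · exact h
  · exfalso
    apply rho_a_ne
    have : (PresentedGroup.of Gen.a : RG) ∈ rho.ker := by
      rw [h]
      trivial
    exact this

theorem rep_inj3 {g g' : RG} {X : List ℕ} (h : Rep g X) (h' : Rep g' X) : g = g' :=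
  rho_inj3 (Units.ext (h.2.trans h'.2.symm))

/-- The action on the space. -/
noncomputable def actV : RG →* Equiv.Perm VV := @MulAction.toPermHom RG VV _ vAct

theorem actV_apply (g : RG) (v : VV) : actV g v = (rho g).val *ᵥ v := rfl

/-- The vector of an index. -/
noncomputable def omV (j : ℕ) : VV := decV 2048 5 111 (om j)

/-- The indices of a subset. -/
def Dset (i : ℕ) : Set ℕ := {j | ∃ k, k < 1296 ∧ j = dg13 (Tr.get LT i) k}

/-- The family of subsets. -/
def DF (i : Fin 275) : Set VV := omV '' Dset i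

theorem DF_finite (i : Fin 275) : (DF i).Finite := by
  refine Set.Finite.image _ ?_
  have : Dset i = (fun k => dg13 (Tr.get LT i) k) '' (Finset.range 1296 : Set ℕ) := by
    ext j
    simp only [Dset, Set.mem_setOf_eq, Set.mem_image, Finset.coe_range, Set.mem_Iio]
    constructor
    · rintro ⟨k, h1, h2⟩
      exact ⟨k, h1, h2.symm⟩
    · rintro ⟨k, h1, h2⟩
      exact ⟨k, h1, h2.symm⟩
  rw [this]
  exact Set.Finite.image _ (Finset.finite_toSet _)

theorem FO_of {j : ℕ} (hj : j < 7128) : redu 2048 5 111 (om j) = om j ∧ (j + 1 < 7128 → om j < om (j + 1)) := by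
  have h := RO_all j (by omega)
  have h1 : Nat.ble 7128 j = false := by
    rw [← Bool.not_eq_true, Nat.ble_eq]
    omega
  have h2 : Bool.or (Nat.ble 7128 j) (bAnd (Nat.beq (redu 2048 5 111 (om j)) (om j))
      (Bool.or (Nat.beq (Nat.succ j) 7128) (Nat.blt (om j) (om (Nat.succ j))))) = true := h
  rw [h1] at h2
  simp only [Bool.false_or] at h2
  rw [bAnd_eq] at h2
  refine ⟨Nat.eq_of_beq_eq_true h2.1, fun h7 => ?_⟩
  have h8 : Nat.beq (Nat.succ j) 7128 = false := Bool.eq_false_iff.mpr fun h => by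
    have := Nat.eq_of_beq_eq_true h
    omega
  have h9 := h2.2
  rw [h8] at h9
  simp only [Bool.false_or] at h9
  simpa [Nat.blt_eq] using h9

theorem om_rd {j : ℕ} (hj : j < 7128) : Rd 2048 5 (om j) := by
  rw [← (FO_of hj).1]
  exact rd_redu (B := 2048) (p := 5) (by norm_num) (by norm_num) (by norm_num) 111 _

theorem om_lt {j : ℕ} (hj : j < 7128) : om j < 2048 ^ 111 := by
  rw [← (FO_of hj).1]
  exact redu_lt (B := 2048) (p := 5) (by norm_num) (by norm_num) (by norm_num) 111 _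

theorem om_mono {i j : ℕ} (hij : i < j) (hj : j < 7128) : om i < om j := by
  induction j, hij using Nat.le_induction with
  | base => exact (FO_of (by omega)).2 hj
  | succ m hm ih => exact lt_trans (ih (by omega)) ((FO_of (by omega)).2 hj)

theorem omV_inj {j j' : ℕ} (hj : j < 7128) (hj' : j' < 7128) (h : omV j = omV j') : j = j' := by
  have e := code_inj' (om_rd hj) (om_rd hj') (om_lt hj) (om_lt hj') h
  rcases lt_trichotomy j j' with h1 | h1 | h1
  · exact absurd e (ne_of_lt (om_mono h1 hj'))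
  · exact h1
  · exact absurd e.symm (ne_of_lt (om_mono h1 hj))

theorem orL_testBit (L n j : ℕ) : (orL L n).testBit j = true ↔ ∃ k, k < n ∧ j = dg13 L k := by
  induction n with
  | zero =>
    have : orL L 0 = 0 := rfl
    rw [this]
    simp
  | succ n ih =>
    have e : orL L (n + 1) = orL L n ||| (1 <<< dg13 L n) := rfl
    rw [e, Nat.testBit_or, Bool.or_eq_true, ih, Nat.one_shiftLeft, Nat.testBit_two_pow]
    simp only [decide_eq_true_eq]
    constructor
    · rintro (⟨k, h1, h2⟩ | h)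
      · exact ⟨k, by omega, h2⟩
      · exact ⟨n, by omega, h.symm⟩
    · rintro ⟨k, h1, h2⟩
      by_cases h3 : k = n
      · right
        rw [h2, h3]
      · left
        exact ⟨k, by omega, h2⟩

theorem bitK_spec {M j : ℕ} (h : bitK M j = true) : M.testBit j = true := by
  have h1 : Nat.land (Nat.shiftRight M j) 1 = 1 := Nat.eq_of_beq_eq_true h
  have h2 : (M >>> j) &&& 1 = 1 := h1
  simp [Nat.testBit, Nat.and_comm 1, h2]

theorem incl_spec {P : ℕ → ℕ} {M L n : ℕ} (h : incl P M L n = true) : ∀ k, k < n → bitK M (P (dg13 L k)) = true := by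
  induction n with
  | zero => intro k hk; omega
  | succ n ih =>
    have h2 : bAnd (bitK M (P (dg13 L n))) (incl P M L n) = true := h
    rw [bAnd_eq] at h2
    intro k hk
    by_cases h3 : k = n
    · rw [h3]
      exact h2.1
    · exact ih h2.2 k (by omega)

theorem FM_of {i : ℕ} (hi : i < 275) : orL (Tr.get LT i) 1296 = Tr.get MT i ∧ Tr.get MT i < 2 ^ 7128 := by
  have h := RM_all i (by omega)
  have h1 : Nat.ble 275 i = false := by
    rw [← Bool.not_eq_true, Nat.ble_eq]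
    omega
  have h2 : Bool.or (Nat.ble 275 i) (bAnd (Nat.beq (orL (Tr.get LT i) 1296) (Tr.get MT i)) (Nat.blt (Tr.get MT i) (Nat.pow 2 7128))) = true := h
  rw [h1] at h2
  simp only [Bool.false_or] at h2
  rw [bAnd_eq] at h2
  exact ⟨Nat.eq_of_beq_eq_true h2.1, by simpa [Nat.blt_eq] using h2.2⟩

theorem mem_Dset_iff {i j : ℕ} (hi : i < 275) : j ∈ Dset i ↔ (Tr.get MT i).testBit j = true := by
  rw [← (FM_of hi).1, orL_testBit]
  rfl

theorem Dset_lt {i j : ℕ} (hi : i < 275) (hj : j ∈ Dset i) : j < 7128 := by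
  have h1 := (mem_Dset_iff hi).mp hj
  have h2 := Nat.ge_two_pow_of_testBit h1
  have h3 := (FM_of hi).2
  exact (Nat.pow_lt_pow_iff_right (by norm_num : 1 < 2)).mp (lt_of_le_of_lt h2 h3)

theorem FS_of {i j : ℕ} (hi : i < 275) (hj : j < i) : Tr.get MT i ≠ Tr.get MT j := by
  have h := RS_all i (by omega)
  have h1 : Nat.ble 275 i = false := by
    rw [← Bool.not_eq_true, Nat.ble_eq]
    omega
  have h2 : Bool.or (Nat.ble 275 i) (Nat.rec (motive := fun _ => Bool) true
      (fun j ih => bAnd (Bool.not (Nat.beq (Tr.get MT i) (Tr.get MT j))) ih) i) = true := h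
  rw [h1] at h2
  simp only [Bool.false_or] at h2
  have key : ∀ n, Nat.rec (motive := fun _ => Bool) true
      (fun j ih => bAnd (Bool.not (Nat.beq (Tr.get MT i) (Tr.get MT j))) ih) n = true → ∀ j, j < n → Tr.get MT i ≠ Tr.get MT j := by
    intro n
    induction n with
    | zero => intro _ j hj; omega
    | succ n ih =>
      intro h3 j hj
      have h4 : bAnd (Bool.not (Nat.beq (Tr.get MT i) (Tr.get MT n))) (Nat.rec (motive := fun _ => Bool) true
        (fun j ih => bAnd (Bool.not (Nat.beq (Tr.get MT i) (Tr.get MT j))) ih) n) = true := h3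
      rw [bAnd_eq] at h4
      by_cases h5 : j = n
      · subst h5
        intro e
        have := h4.1
        rw [e, Nat.beq_refl] at this
        simp at this
      · exact ih h4.2 j (by omega)
  exact key i h2 j hj

theorem DF_inj : Function.Injective DF := by
  have hsub : ∀ a b : Fin 275, DF a = DF b → Dset a ⊆ Dset b := by
    intro a b e j hj
    have h1 : omV j ∈ DF b := by
      rw [← e]
      exact ⟨j, hj, rfl⟩
    obtain ⟨j', hj', h2⟩ := h1
    have := omV_inj (Dset_lt b.2 hj') (Dset_lt a.2 hj) h2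
    rwa [← this]
  have hM : ∀ a b : Fin 275, DF a = DF b → Tr.get MT a = Tr.get MT b := by
    intro a b e
    apply Nat.eq_of_testBit_eq
    intro j
    have h1 := hsub a b e
    have h2 := hsub b a e.symm
    have h3 : j ∈ Dset a ↔ j ∈ Dset b := ⟨fun h => h1 h, fun h => h2 h⟩
    rw [mem_Dset_iff a.2, mem_Dset_iff b.2] at h3
    exact Bool.eq_iff_iff.mpr h3
  intro a b e
  have h := hM a b e
  apply Fin.ext
  rcases lt_trichotomy (a : ℕ) b with h1 | h1 | h1
  · exact absurd h.symm (FS_of b.2 h1)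
  · exact h1
  · exact absurd h (FS_of a.2 h1)

/-- The action of an element on the subsets, from the tables. -/
theorem act_sub {g : RG} {Y : List ℕ} (hg : Rep g Y) {P s : ℕ → ℕ} (hY : ∀ j, j < 7128 → mv 2048 5 111 Y (om j) = om (P j))
    (hD : ∀ i, i < 275 → incl P (Tr.get MT (s i)) (Tr.get LT i) 1296 = true) (π : Equiv.Perm (Fin 275))
    (hπ : ∀ i : Fin 275, (π i).val = s i.val) : ∀ i, actV g '' DF i ⊆ DF (π i) := by
  rintro i _ ⟨_, ⟨j, hj, rfl⟩, rfl⟩
  have hj7 := Dset_lt i.2 hj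
  refine ⟨P j, ?_, ?_⟩
  · obtain ⟨k, hk, rfl⟩ := hj
    rw [mem_Dset_iff (π i).2, hπ]
    exact bitK_spec (incl_spec (hD i i.2) k hk)
  · rw [actV_apply, hg.2]
    show decV 2048 5 111 (om (P j)) = _
    rw [← hY j hj7]
    exact decV_mv_good par hg.1 (om_rd hj7)

theorem FY_of {Y : List ℕ} {P : ℕ → ℕ}
    (hF : ∀ j, j < 7168 → rowY Y P om 7128 j = true) : ∀ j, j < 7128 → mv 2048 5 111 Y (om j) = om (P j) := by
  intro j hj
  have h := hF j (by omega)
  have h1 : Nat.ble 7128 j = false := by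
    rw [← Bool.not_eq_true, Nat.ble_eq]
    omega
  unfold rowY at h
  rw [h1] at h
  simp only [Bool.false_or] at h
  exact Nat.eq_of_beq_eq_true h

theorem FD_of {P s : ℕ → ℕ} (hF : ∀ i, i < 288 → rowD P s (Tr.get LT) (Tr.get MT) 1296 275 i = true) :
    ∀ i, i < 275 → incl P (Tr.get MT (s i)) (Tr.get LT i) 1296 = true := by
  intro i hi
  have h := hF i (by omega)
  have h1 : Nat.ble 275 i = false := by
    rw [← Bool.not_eq_true, Nat.ble_eq]
    omega
  unfold rowD at h
  rw [h1] at h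
  simpa using h

theorem rep_xC : Rep (xC : G) X321 := by
  have e : (xC : G) = (((((PresentedGroup.of Gen.b) * ((PresentedGroup.of Gen.a)⁻¹)) * ((PresentedGroup.of Gen.b)⁻¹)) * (PresentedGroup.of Gen.a)) * (PresentedGroup.of Gen.b)) * ((PresentedGroup.of Gen.b)⁻¹) := by
    show eh [2, 1, 3, 0, 2, 3] = _
    simp [eh, ltH, mul_assoc]
  rw [e]
  exact (Rep.mul7 (Rep.mul7 (Rep.mul7 (Rep.mul7 (Rep.mul7 (Rep.letter .b rfl) (Rep.letterI .a rfl) (by decide +kernel) X317_0 X317_16 X317_32 X317_48 X317_64 X317_80 X317_96) (Rep.letterI .b rfl) (by decide +kernel) X318_0 X318_16 X318_32 X318_48 X318_64 X318_80 X318_96) (Rep.letter .a rfl) (by decide +kernel) X319_0 X319_16 X319_32 X319_48 X319_64 X319_80 X319_96) (Rep.letter .b rfl) (by decide +kernel) X320_0 X320_16 X320_32 X320_48 X320_64 X320_80 X320_96) (Rep.letterI .b rfl) (by decide +kernel) X321_0 X321_16 X321_32 X321_48 X321_64 X321_80 X321_96)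

theorem xC_cube' : (xC : G) ^ 3 = 1 := by
  have h : xC ^ 3 = 1 := by
    rw [pow_succ, pow_two]
    exact xC_cube
  exact congrArg Subtype.val h

theorem xC_ne' : (xC : G) ≠ 1 := fun e => xC_ne (Subtype.ext e)

/-- The main theorem on the centraliser. -/
theorem mcl_main : Nat.card (Subgroup.center (Subgroup.centralizer ({(xC : G)} : Set G))) = 3 ∧
      Cfsg.IsMcL ((Subgroup.centralizer ({(xC : G)} : Set G)) ⧸ Subgroup.center (Subgroup.centralizer ({(xC : G)} : Set G))) := by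
  classical
  obtain ⟨φ, hφ⟩ := exists_hom (act := actV) (D := DF) DF_inj
  let T : Subgroup G := famT actV DF
  let K : Subgroup G := T ⊓ Subgroup.centralizer ({(xC : G)} : Set G)
  let φ' : K →* Equiv.Perm (Fin 275) := φ.comp (Subgroup.inclusion (inf_le_left : K ≤ T))
  have hφ' : ∀ (g : K) i, actV (g : G) '' DF i = DF (φ' g i) := fun g i => hφ ⟨g, g.2.1⟩ i
  have hx : Rep (xC : G) X321 := rep_xC
  -- the element acts trivially
  have hXfix : ∀ j, j < 7128 → actV (xC : G) (omV j) = omV j := by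
    intro j hj
    have h := RX_all j (by omega)
    have h1 : Nat.ble 7128 j = false := by
      rw [← Bool.not_eq_true, Nat.ble_eq]
      omega
    have h2 : Bool.or (Nat.ble 7128 j) (Nat.beq (mv 2048 5 111 X321 (om j)) (om j)) = true := h
    rw [h1] at h2
    simp only [Bool.false_or] at h2
    have h3 := Nat.eq_of_beq_eq_true h2
    rw [actV_apply, hx.2]
    have h4 := decV_mv_good par hx.1 (om_rd hj)
    rw [h3] at h4
    exact h4.symm
  have hXD : ∀ i, actV (xC : G) '' DF i = DF ((1 : Equiv.Perm (Fin 275)) i) := by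
    intro i
    ext v
    constructor
    · rintro ⟨_, ⟨j, hj, rfl⟩, rfl⟩
      rw [hXfix j (Dset_lt i.2 hj)]
      exact ⟨j, hj, rfl⟩
    · rintro ⟨j, hj, rfl⟩
      exact ⟨omV j, ⟨j, hj, rfl⟩, hXfix j (Dset_lt i.2 hj)⟩
  have hxK : (xC : G) ∈ K := ⟨⟨1, hXD⟩, Subgroup.mem_centralizer_singleton_iff.mpr rfl⟩
  have hφx : φ' ⟨(xC : G), hxK⟩ = 1 := by
    ext i
    have h1 := hφ' ⟨(xC : G), hxK⟩ i
    have h2 := hXD i
    exact congrArg Fin.val (DF_inj (h1.symm.trans h2))
  -- the generators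
  have hgen : Cfsg.Agent.Lib.McLBridge.Pg ≤ φ'.range := by
    apply Cfsg.Agent.Lib.McLGenFacts.Pg_le
    have key : ∀ (g : G) (Y : List ℕ) (CY : List ℕ) (l : ℕ) (P : ℕ → ℕ), l < 3 → Rep g Y → Rep (g * (xC : G)) CY → Rep ((xC : G) * g) CY →
        (∀ j, j < 7128 → mv 2048 5 111 Y (om j) = om (P j)) →
        (∀ i, i < 275 → incl P (Tr.get MT (Cfsg.Agent.Lib.McLFusData.S l i)) (Tr.get LT i) 1296 = true) →
        ∃ h ∈ φ'.range, ∀ x : Fin 275, (h x).val = Cfsg.Agent.Lib.McLFusData.S l x.val := by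
      intro g Y CY l P hl hg h1 h2 hY hD
      obtain ⟨π, -, hπ⟩ := Cfsg.Agent.Lib.McLBridge.gen_spec hl
      have hsub := act_sub hg hY hD π hπ
      have heq := mem_famT_of_subset DF_finite hsub
      have hc : g * (xC : G) = (xC : G) * g := rep_inj3 h1 h2
      have hgK : g ∈ K := ⟨⟨π, heq⟩, Subgroup.mem_centralizer_singleton_iff.mpr hc⟩
      refine ⟨φ' ⟨g, hgK⟩, ⟨_, rfl⟩, fun x => ?_⟩
      have h3 := hφ' ⟨g, hgK⟩ x
      have h4 := heq x
      have h5 := DF_inj (h3.symm.trans h4)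
      rw [h5]
      exact hπ x
    intro l hl
    obtain ⟨g0, h0⟩ := Rep.of_img X302_img
    obtain ⟨g1, h1⟩ := Rep.of_img X307_img
    obtain ⟨g2, h2⟩ := Rep.of_img X316_img
    interval_cases l
    · exact key g0 _ CY0 0 (dg13 PT0) (by norm_num) h0
        (Rep.mul7 h0 hx CY0_len CY0a_0 CY0a_16 CY0a_32 CY0a_48 CY0a_64 CY0a_80 CY0a_96)
        (Rep.mul7 hx h0 CY0_len CY0b_0 CY0b_16 CY0b_32 CY0b_48 CY0b_64 CY0b_80 CY0b_96)
        (FY_of (P := dg13 PT0) RY0_all) (FD_of (P := dg13 PT0) (s := Cfsg.Agent.Lib.McLFusData.S 0) RD0_all)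
    · exact key g1 _ CY1 1 (dg13 PT1) (by norm_num) h1
        (Rep.mul7 h1 hx CY1_len CY1a_0 CY1a_16 CY1a_32 CY1a_48 CY1a_64 CY1a_80 CY1a_96)
        (Rep.mul7 hx h1 CY1_len CY1b_0 CY1b_16 CY1b_32 CY1b_48 CY1b_64 CY1b_80 CY1b_96)
        (FY_of (P := dg13 PT1) RY1_all) (FD_of (P := dg13 PT1) (s := Cfsg.Agent.Lib.McLFusData.S 1) RD1_all)
    · exact key g2 _ CY2 2 (dg13 PT2) (by norm_num) h2
        (Rep.mul7 h2 hx CY2_len CY2a_0 CY2a_16 CY2a_32 CY2a_48 CY2a_64 CY2a_80 CY2a_96)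
        (Rep.mul7 hx h2 CY2_len CY2b_0 CY2b_16 CY2b_32 CY2b_48 CY2b_64 CY2b_80 CY2b_96)
        (FY_of (P := dg13 PT2) RY2_all) (FD_of (P := dg13 PT2) (s := Cfsg.Agent.Lib.McLFusData.S 2) RD2_all)
  exact main3 (xC : G) xC_cube' xC_ne' Cfsg.Agent.Lib.McLGenFacts.simple_Pg Cfsg.Agent.Lib.McLFus.card_Pg K
    inf_le_right hxK φ' hφx hgen cent_le3

end Cfsg.Agent.Lib.LyDce
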